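/-
CALL BG15 (helper25), piece DIR.
-/
import Cfsg.Agent.Helper35.Coprime

set_option autoImplicit false

namespace Cfsg.Agent.Helper85

open Cfsg Subgroup

universe u

variable {Γ : Type u} [Group Γ] [Finite Γ]

/-- an element of `N` killed by a number coprime to the order of `N` is trivial -/
theorem bg15_eq_one_of_pow_coprime (N : Subgroup Γ) {n : Γ} (hn : n ∈ N) {m : ℕ}
    (hm : (Nat.card N).Coprime m) (hnm : n ^ m = 1) : n = 1 := by
  have h1 : orderOf n ∣ Nat.card N := Subgroup.orderOf_dvd_natCard N hn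
  have h2 : orderOf n ∣ m := orderOf_dvd_of_pow_eq_one hnm
  have h3 : orderOf n ∣ Nat.gcd (Nat.card N) m := Nat.dvd_gcd h1 h2
  rw [hm] at h3
  exact orderOf_eq_one_iff.1 (Nat.dvd_one.1 h3)

/-- DIR. In a normal subgroup `X = N × Q` with coprime factors, `Q` is normal in `Γ`. -/
theorem bg15_direct_normal (N Q X : Subgroup Γ) [N.Normal] [X.Normal] (hX : X = N ⊔ Q)
    (hcent : Q ≤ centralizer (N : Set Γ)) (hcop : (Nat.card N).Coprime (Nat.card Q)) :
    Q.Normal := by
  refine ⟨fun y hy g => ?_⟩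
  have hyX : y ∈ X := by rw [hX]; exact Subgroup.mem_sup_right hy
  have hgX : g * y * g⁻¹ ∈ N ⊔ Q := by
    rw [← hX]; exact ‹X.Normal›.conj_mem y hyX g
  have hmem : g * y * g⁻¹ ∈ ((N ⊔ Q : Subgroup Γ) : Set Γ) := hgX
  rw [Subgroup.normal_mul, Set.mem_mul] at hmem
  obtain ⟨n, hn, y', hy', hny⟩ := hmem
  have hcomm : Commute n y' := ((Subgroup.mem_centralizer_iff.1 (hcent hy')) n hn)
  have hypow : y ^ Nat.card Q = 1 := by
    have := pow_card_eq_one' (G := Q) (x := ⟨y, hy⟩)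
    exact congrArg Subtype.val this
  have hy'pow : y' ^ Nat.card Q = 1 := by
    have := pow_card_eq_one' (G := Q) (x := ⟨y', hy'⟩)
    exact congrArg Subtype.val this
  have h1 : (g * y * g⁻¹) ^ Nat.card Q = 1 := by
    rw [conj_pow, hypow]; group
  rw [← hny, hcomm.mul_pow, hy'pow, mul_one] at h1
  have hn1 : n = 1 := bg15_eq_one_of_pow_coprime N hn hcop h1
  rw [← hny, hn1, one_mul]
  exact hy'

end Cfsg.Agent.Helper85
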