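/-
CALL BG15 (helper25), piece CN.
-/
import Cfsg.Agent.Helper85.BG15DIR

set_option autoImplicit false

namespace Cfsg.Agent.Helper85

open Cfsg Subgroup

universe u

variable {Γ : Type u} [Group Γ] [Finite Γ]

/-- CN. `C_Q(N)` is normal in `Γ` when `X = N Q` is normal, `N` a normal q'-group, `Q` a
q-group. -/
theorem bg15_C_normal (N Q X : Subgroup Γ) [N.Normal] [X.Normal] {q : ℕ} (hq : q.Prime)
    (hX : X = N ⊔ Q) (hNq : (Nat.card N).Coprime q) (hQq : IsPGroup q Q) :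
    (Q ⊓ centralizer (N : Set Γ)).Normal := by
  haveI : Fact q.Prime := ⟨hq⟩
  refine ⟨fun c hc g => ?_⟩
  obtain ⟨hcQ, hcC⟩ := hc
  have hdC : g * c * g⁻¹ ∈ centralizer (N : Set Γ) :=
    (Subgroup.normal_centralizer (H := N)).conj_mem c hcC g
  have hcX : c ∈ X := by rw [hX]; exact Subgroup.mem_sup_right hcQ
  have hgX : g * c * g⁻¹ ∈ N ⊔ Q := by
    rw [← hX]; exact ‹X.Normal›.conj_mem c hcX g
  have hmem : g * c * g⁻¹ ∈ ((N ⊔ Q : Subgroup Γ) : Set Γ) := hgX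
  rw [Subgroup.normal_mul, Set.mem_mul] at hmem
  obtain ⟨n, hn, y, hy, hny⟩ := hmem
  have hcomm : Commute n (g * c * g⁻¹) := (Subgroup.mem_centralizer_iff.1 hdC) n hn
  have hcpow : c ^ Nat.card Q = 1 := by
    have := pow_card_eq_one' (G := Q) (x := ⟨c, hcQ⟩)
    exact congrArg Subtype.val this
  have hypow : y ^ Nat.card Q = 1 := by
    have := pow_card_eq_one' (G := Q) (x := ⟨y, hy⟩)
    exact congrArg Subtype.val this
  have hdpow : (g * c * g⁻¹) ^ Nat.card Q = 1 := by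
    rw [conj_pow, hcpow]; group
  have hy_eq : y = n⁻¹ * (g * c * g⁻¹) := by rw [← hny]; group
  have hcomm' : Commute n⁻¹ (g * c * g⁻¹) := hcomm.inv_left
  have h1 : (n⁻¹) ^ Nat.card Q = 1 := by
    have h2 := hypow
    rw [hy_eq, hcomm'.mul_pow, hdpow, mul_one] at h2
    exact h2
  obtain ⟨k, hk⟩ := IsPGroup.iff_card.1 hQq
  have hcop : (Nat.card N).Coprime (Nat.card Q) := by
    rw [hk]; exact Nat.Coprime.pow_right k hNq
  have hn1 : n⁻¹ = 1 := bg15_eq_one_of_pow_coprime N (N.inv_mem hn) hcop h1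
  have hd : g * c * g⁻¹ = y := by rw [hy_eq, hn1, one_mul]
  exact ⟨by rw [hd]; exact hy, hdC⟩

end Cfsg.Agent.Helper85
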