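/-
CALL BG15 (helper25), piece NS.
-/
import Cfsg.Agent.Helper35.Coprime

set_option autoImplicit false

namespace Cfsg.Agent.Helper85

open Cfsg Subgroup

universe u

variable {Γ : Type u} [Group Γ] [Finite Γ]

/-- NS. A nilpotent normal subgroup has a Sylow `q`-subgroup that is normal in the whole group. -/
theorem bg15_nilpotent_sylow (H : Subgroup Γ) [H.Normal] (hnil : Group.IsNilpotent ↥H) {q : ℕ}
    (hq : q.Prime) :
    ∃ Q : Subgroup Γ, Q.Normal ∧ Q ≤ H ∧ IsPGroup q Q ∧ ¬ q ∣ Q.relIndex H := by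
  haveI : Fact q.Prime := ⟨hq⟩
  obtain ⟨P⟩ : Nonempty (Sylow q ↥H) := inferInstance
  have hPn : (P : Subgroup ↥H).Normal :=
    Sylow.normal_of_normalizerCondition Group.normalizerCondition_of_isNilpotent P
  haveI hPc : (P : Subgroup ↥H).Characteristic := Sylow.characteristic_of_normal P hPn
  refine ⟨(P : Subgroup ↥H).map H.subtype, ConjAct.normal_of_characteristic_of_normal,
    Subgroup.map_subtype_le _, P.isPGroup'.map _, ?_⟩
  have h1 : ((P : Subgroup ↥H).map H.subtype).subgroupOf H = (P : Subgroup ↥H) := by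
    ext x
    rw [Subgroup.mem_subgroupOf]
    constructor
    · rintro ⟨y, hy, hyx⟩
      have : y = x := Subtype.ext hyx
      rw [← this]; exact hy
    · intro hx
      exact ⟨x, hx, rfl⟩
  show ¬ q ∣ (((P : Subgroup ↥H).map H.subtype).subgroupOf H).index
  rw [h1]
  exact P.not_dvd_index

end Cfsg.Agent.Helper85
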