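/-
CALL BG15 (helper25), piece PB.
-/
import Cfsg.Agent.Helper35.Coprime

set_option autoImplicit false

namespace Cfsg.Agent.Helper85

open Cfsg Subgroup

universe u

variable {Γ : Type u} [Group Γ] [Finite Γ]

/-- PB. Pull back a normal Sylow `q`-subgroup of `L/N`. -/
theorem bg15_pullback (L N : Subgroup Γ) [N.Normal] (hNL : N ≤ L) {q : ℕ} (hq : q.Prime)
    (Qb : Subgroup (Γ ⧸ N)) [Qb.Normal] (hQL : Qb ≤ L.map (QuotientGroup.mk' N))
    (hQq : IsPGroup q Qb) (hidx : ¬ q ∣ Qb.relIndex (L.map (QuotientGroup.mk' N))) :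
    ∃ X : Subgroup Γ, X.Normal ∧ N ≤ X ∧ X ≤ L ∧ (∃ n : ℕ, N.relIndex X = q ^ n) ∧
      ¬ q ∣ X.relIndex L := by
  haveI : Fact q.Prime := ⟨hq⟩
  have hker : N = (⊥ : Subgroup (Γ ⧸ N)).comap (QuotientGroup.mk' N) := by
    ext x
    rw [Subgroup.mem_comap, Subgroup.mem_bot]
    exact (QuotientGroup.eq_one_iff x).symm
  refine ⟨Qb.comap (QuotientGroup.mk' N), ‹Qb.Normal›.comap _, ?_, ?_, ?_, ?_⟩
  · intro x hx
    rw [Subgroup.mem_comap]
    have : QuotientGroup.mk' N x = 1 := (QuotientGroup.eq_one_iff x).2 hx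
    rw [this]; exact Qb.one_mem
  · intro x hx
    rw [Subgroup.mem_comap] at hx
    obtain ⟨l, hl, hlx⟩ := hQL hx
    have h1 : l⁻¹ * x ∈ N := QuotientGroup.eq.1 hlx
    have h2 : x = l * (l⁻¹ * x) := by group
    rw [h2]
    exact L.mul_mem hl (hNL h1)
  · obtain ⟨n, hn⟩ := IsPGroup.iff_card.1 hQq
    refine ⟨n, ?_⟩
    have h1 : N.relIndex (Qb.comap (QuotientGroup.mk' N)) =
        ((⊥ : Subgroup (Γ ⧸ N)).comap (QuotientGroup.mk' N)).relIndex
          (Qb.comap (QuotientGroup.mk' N)) := by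
      rw [← hker]
    rw [h1, Subgroup.relIndex_comap, Subgroup.relIndex_bot_left,
      Subgroup.map_comap_eq_self_of_surjective (QuotientGroup.mk'_surjective N)]
    exact hn
  · rw [Subgroup.relIndex_comap]
    exact hidx

end Cfsg.Agent.Helper85
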