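import Mathlib
import Cfsg.Prelude.Def_GeometricClasses
import Cfsg.Prelude.Def_Classical
import Cfsg.Agent.Helper98.ELPDefs

set_option autoImplicit false

/-!
# Sub-CALL ELP (helper98), piece CONJ: `levi A * sieg T * (levi A)⁻¹ = sieg (A T Aᵀ)`.
-/

namespace Cfsg.Agent.Helper85.ELP

open Matrix Cfsg.Agent.Helper98.ELP
open scoped MatrixGroups

variable {n : Type} [Fintype n] [DecidableEq n] {F : Type*} [Field F]

/-- CONJ [S]: `levi A * sieg T * (levi A)⁻¹ = sieg (A T Aᵀ)`: `Units.ext`, block multiplication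
(`Matrix.fromBlocks_multiply`), `A (T - Tᵀ) Aᵀ = A T Aᵀ - (A T Aᵀ)ᵀ`, `A * A⁻¹ = 1`. -/
theorem levi_conj (A : GL n F) (T : Matrix n n F) :
    levi A * sieg T * (levi A)⁻¹ = sieg ((A : Matrix n n F) * T * (A : Matrix n n F)ᵀ) := by
  apply Units.ext
  rw [Units.val_mul, Units.val_mul, levi_coe, levi_inv_coe, sieg_coe, sieg_coe]
  have h1 : (A : Matrix n n F) * ((A⁻¹ : GL n F) : Matrix n n F) = 1 := by
    rw [← Units.val_mul, mul_inv_cancel, Units.val_one]
  have h2 : (((A⁻¹ : GL n F) : Matrix n n F))ᵀ * (A : Matrix n n F)ᵀ = 1 := by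
    rw [← Matrix.transpose_mul, h1, Matrix.transpose_one]
  simp only [siegM, Matrix.fromBlocks_multiply, Matrix.mul_zero, Matrix.zero_mul, add_zero,
    zero_add, Matrix.mul_one, Matrix.one_mul, h1, h2]
  congr 1
  simp only [Matrix.transpose_mul, Matrix.transpose_transpose, Matrix.mul_sub, Matrix.sub_mul,
    Matrix.mul_assoc]

end Cfsg.Agent.Helper85.ELP

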