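import Cfsg.Agent.Helper85.DirProdA
import Cfsg.Agent.S5119

set_option autoImplicit false
open Cfsg

namespace Cfsg.Agent.Helper85

open Cfsg.FusionSystem
open Cfsg.Agent.Helper88

variable {Ω : Type*} [Group Ω] {S : Subgroup Ω}

/-- for an automorphism `α` of `T` and `a ∈ Z(T)`, `a⁻¹ α(a) ∈ Z(T)` -/
theorem aut_comm_center {T : Subgroup Ω} (α : MulAut T) {a : Ω} (ha : a ∈ T)
    (hac : ∀ x ∈ T, x * a = a * x) : a⁻¹ * autFun α a ∈ T ⊓ Subgroup.centralizer (T : Set Ω) := by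
  have hαa : autFun α a ∈ T := autFun_mem α ha
  refine Subgroup.mem_inf.2 ⟨T.mul_mem (T.inv_mem ha) hαa, ?_⟩
  rw [Subgroup.mem_centralizer_iff]
  intro x hx
  have hxT : x ∈ T := hx
  have h9 : x * autFun α a = autFun α a * x := by
    obtain ⟨u, hu, rfl⟩ : ∃ u ∈ T, autFun α u = x := ⟨_, autFun_mem α⁻¹ hxT, autFun_apply_inv α hxT⟩
    rw [← autFun_map_mul α hu ha, ← autFun_map_mul α ha hu, hac u hu]
  have h10 : x * a⁻¹ = a⁻¹ * x := by
    have h := hac x hxT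
    calc x * a⁻¹ = a⁻¹ * (a * x) * a⁻¹ := by group
      _ = a⁻¹ * (x * a) * a⁻¹ := by rw [h]
      _ = a⁻¹ * x := by group
  calc x * (a⁻¹ * autFun α a) = (x * a⁻¹) * autFun α a := by group
    _ = a⁻¹ * x * autFun α a := by rw [h10]
    _ = a⁻¹ * (x * autFun α a) := by group
    _ = a⁻¹ * (autFun α a * x) := by rw [h9]
    _ = a⁻¹ * autFun α a * x := by group

section

variable [Finite S] {p : ℕ} [Fact p.Prime] {F : FusionSystem S} {S₁ S₂ : Subgroup Ω}

theorem dp_subsystem {R' : FusionSystem S₁}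
    (hR' : ∀ (P : Subgroup Ω), P ≤ S₁ → ∀ f, IsMap R' P f ↔ DPMap F S₂ P f) : R'.IsSubsystemOf F := by
  intro P φ hφ
  have h := isMap_extHom hφ
  obtain ⟨f', hf', hf'P, -⟩ := (hR' P h.le _).1 h
  exact (isMap_iff_hom F φ).2 ((hf'.restrict le_sup_left).congr (fun x hx => (hf'P x hx).symm))

/-- full automization in the system of maps extending over `S₂` by the identity -/
theorem dp_fullyAutomized (hS : IsPGroup p S) (hF : F.IsSaturated p)
    (hprod : IsInternalDirectProduct S₁ S₂ S) (h₁ : F.StronglyClosed S₁) (h₂ : F.StronglyClosed S₂)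
    {R' : FusionSystem S₁}
    (hR' : ∀ (P : Subgroup Ω), P ≤ S₁ → ∀ f, IsMap R' P f ↔ DPMap F S₂ P f)
    {P : Subgroup Ω} (hP : P ≤ S₁) (hfn : F.IsFullyNormalized P) : R'.IsFullyAutomized p P := by
  have hPS : P ≤ S := hfn.1
  have hfinP : Finite P := Helper88.finite_of_le hPS
  have hfa := (Helper84.saturated_fullyNormalized hS F hF hfn).1
  have hsyl : SylIn p (autInducedBy S P) (F.autGroup P) := hfa.2
  refine ⟨hP, ?_⟩
  show SylIn p (autInducedBy S₁ P) (R'.autGroup P)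
  rw [dp_autInducedBy hprod hP]
  refine hsyl.of_normal (fun α hα => ?_) (fun b hb k hk => ?_)
  · have h1 := (Helper88.mem_autGroup_iff R' hP α).1 hα
    obtain ⟨f', hf', hf'P, -⟩ := (hR' P hP _).1 h1
    exact (Helper88.mem_autGroup_iff F hPS α).2
      ((hf'.restrict le_sup_left).congr (fun x hx => (hf'P x hx).symm))
  · have hk1 := (hR' P hP _).1 ((Helper88.mem_autGroup_iff R' hP k).1 hk)
    have hb1 := (Helper88.mem_autGroup_iff F hPS b).1 hb
    obtain ⟨g, hg, hgv⟩ := dp_strongInv hS hF hprod h₁ h₂ le_rfl hP hk1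
      (fun x hx => autFun_mem k hx) hb1
    rw [img_autFun] at hg
    refine (Helper88.mem_autGroup_iff R' hP _).2 (((hR' P hP _).2 hg).congr (fun x hx => ?_))
    rw [autFun_mul _ _ hx, autFun_mul _ _ (autFun_mem _ hx), ← hgv _ (autFun_mem b⁻¹ hx),
      autFun_apply_inv b hx]

/-- receptivity in the system of maps extending over `S₂` by the identity -/
theorem dp_receptive (hprod : IsInternalDirectProduct S₁ S₂ S) {R' : FusionSystem S₁}
    (hR' : ∀ (P : Subgroup Ω), P ≤ S₁ → ∀ f, IsMap R' P f ↔ DPMap F S₂ P f)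
    {P : Subgroup Ω} (hP : P ≤ S₁) (hrec : F.IsReceptive (P ⊔ S₂)) : R'.IsReceptive P := by
  have hS₁S : S₁ ≤ S := hprod.1
  refine ⟨hP, fun Q φ hφ hrange => ?_⟩
  have hφf : ∀ x : Q, φ x = extHom φ x := fun x => (extHom_apply φ x).symm
  have hf : IsMap R' Q (extHom φ) := isMap_extHom hφ
  have hQ : Q ≤ S₁ := hf.le
  have hfimg : img Q (extHom φ) = P := (img_eq_range hφf).trans hrange
  obtain ⟨f', hf', hf'Q, hf'₂⟩ := (hR' Q hQ _).1 hf
  have himg : img (Q ⊔ S₂) f' = P ⊔ S₂ := by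
    rw [hf'.img_sup, img_congr hf'Q, hfimg, img_id_of_fix hf'₂]
  have hEX := fun g => mem_extender_iff (S := S₁) hφf g
  have hNS₁ : extender S₁ Q φ ≤ S₁ := fun g hg => ((hEX g).1 hg).1
  obtain ⟨Ψ, hΨ, hΨv⟩ := receptive_extend hrec hf' himg (N := extender S₁ Q φ) (fun g hg => by
    obtain ⟨hgS₁, hgN, h, hh, hc⟩ := (hEX g).1 hg
    have hgS : g ∈ S := hS₁S hgS₁
    have hgN' : g ∈ normalizerIn S (Q ⊔ S₂) := by
      rw [dp_normalizerIn_sup hprod hQ]; exact mem_normalizerIn_iff.2 ⟨hgS, hgN⟩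
    have hgN'' := (mem_normalizerIn_iff.1 hgN').2
    refine ⟨hgS, hgN'', h, hS₁S hh, ?_⟩
    have hc1 : IsMap F (Q ⊔ S₂) (f' ∘ fun x => g * x * g⁻¹) :=
      (isMap_conj F hf'.le hgS).comp hf' (fun x hx => conj_mem_of_mem_normalizer hgN'' hx)
    have hc2 : IsMap F (Q ⊔ S₂) ((fun y => h * y * h⁻¹) ∘ f') :=
      hf'.comp (isMap_conj F (le_refl S) (hS₁S hh)) (fun x hx => hf'.mem hx)
    exact hc1.eqOn_sup hc2 (fun x hx => by
        show f' (g * x * g⁻¹) = h * f' x * h⁻¹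
        rw [hf'Q _ (conj_mem_of_mem_normalizer hgN hx), hf'Q x hx]
        exact hc x hx)
      (fun y hy => by
        show f' (g * y * g⁻¹) = h * f' y * h⁻¹
        have e1 : g * y * g⁻¹ = y := by rw [hprod.2.2.1 g hgS₁ y hy, mul_inv_cancel_right]
        have e2 : h * y * h⁻¹ = y := by rw [hprod.2.2.1 h hh y hy, mul_inv_cancel_right]
        rw [e1, hf'₂ y hy, e2]))
  have hle : extender S₁ Q φ ⊔ S₂ ≤ extender S₁ Q φ ⊔ (Q ⊔ S₂) := sup_le_sup_left le_sup_right _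
  have hΨR : IsMap R' (extender S₁ Q φ) Ψ := (hR' _ hNS₁ _).2
    ⟨Ψ, hΨ.restrict hle, fun _ _ => rfl, fun z hz => by
      rw [hΨv z (Subgroup.mem_sup_right hz)]; exact hf'₂ z hz⟩
  obtain ⟨ψ, hψ, hψv⟩ := hΨR
  refine ⟨ψ, hψ, fun x hxQ hxN => ?_⟩
  rw [hψv ⟨x, hxN⟩]
  show Ψ x = φ ⟨x, hxQ⟩
  rw [hΨv x (Subgroup.mem_sup_left hxQ), hf'Q x hxQ, extHom_apply' φ hxQ]

/-- the system of maps on subgroups of `S₁` extending over `S₂` by the identity is saturated -/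
theorem dp_saturated (hS : IsPGroup p S) (hF : F.IsSaturated p)
    (hprod : IsInternalDirectProduct S₁ S₂ S) (h₁ : F.StronglyClosed S₁) (h₂ : F.StronglyClosed S₂)
    {R' : FusionSystem S₁}
    (hR' : ∀ (P : Subgroup Ω), P ≤ S₁ → ∀ f, IsMap R' P f ↔ DPMap F S₂ P f) : R'.IsSaturated p := by
  intro P hP
  obtain ⟨θ, hθ, hθ₂, hfn, hfn₂⟩ := dp_exists_conj hS hF hprod h₁ h₂ hP
  have hθR : IsMap R' P θ := (hR' P hP _).2 ⟨θ, hθ, fun _ _ => rfl, hθ₂⟩
  have hP' : img P θ ≤ S₁ := hθR.img_le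
  exact ⟨img P θ, hθR.isConj, dp_fullyAutomized hS hF hprod h₁ h₂ hR' hP' hfn,
    dp_receptive hprod hR' hP' (Helper84.saturated_fullyNormalized hS F hF hfn₂).2⟩

/-- the system of maps extending over `S₂` by the identity is invariant in `F` -/
theorem dp_invariant (hS : IsPGroup p S) (hF : F.IsSaturated p)
    (hprod : IsInternalDirectProduct S₁ S₂ S) (h₁ : F.StronglyClosed S₁) (h₂ : F.StronglyClosed S₂)
    {R' : FusionSystem S₁}
    (hR' : ∀ (P : Subgroup Ω), P ≤ S₁ → ∀ f, IsMap R' P f ↔ DPMap F S₂ P f) : R'.IsInvariantIn F :=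
  (Cfsg.Agent.S5119.result p hS F hF R' (dp_subsystem hR') h₁).2
    (strongInv_of_forall (fun P Q hPQ hQ f ψ hf hfQ hψ => by
      obtain ⟨g, hg, hgv⟩ := dp_strongInv hS hF hprod h₁ h₂ hPQ hQ ((hR' P (hPQ.trans hQ) f).1 hf) hfQ hψ
      have hψP : IsMap F P ψ := hψ.restrict hPQ
      have hle : img P ψ ≤ S₁ := by
        intro y hy
        obtain ⟨x, hx, rfl⟩ := hψP.mem_img.1 hy
        exact sc_apply_mem h₁ hψP hx (hQ (hPQ hx))
      exact ⟨g, (hR' _ hle g).2 hg, hgv⟩))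

/-- the extension condition for the system of maps extending over `S₂` by the identity -/
theorem dp_extension (hprod : IsInternalDirectProduct S₁ S₂ S) {R' : FusionSystem S₁}
    (hR' : ∀ (P : Subgroup Ω), P ≤ S₁ → ∀ f, IsMap R' P f ↔ DPMap F S₂ P f) :
    ∀ α ∈ R'.autGroup S₁, ∃ β ∈ F.autGroup (S₁ ⊔ centralizerIn S S₁),
      (∀ x : S₁, ((β (Subgroup.inclusion le_sup_left x) : ↥(S₁ ⊔ centralizerIn S S₁)) : Ω) =
        ((α x : S₁) : Ω)) ∧
      ∀ c : ↥(S₁ ⊔ centralizerIn S S₁), (c : Ω) ∈ centralizerIn S S₁ →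
        (c : Ω)⁻¹ * ((β c : ↥(S₁ ⊔ centralizerIn S S₁)) : Ω) ∈
          S₁ ⊓ Subgroup.centralizer (S₁ : Set Ω) := by
  have hS₁S : S₁ ≤ S := hprod.1
  have hS₂S : S₂ ≤ S := hprod.2.1
  intro α hα
  have hαR : IsMap R' S₁ (autFun α) := (Helper88.mem_autGroup_iff R' le_rfl α).1 hα
  obtain ⟨f', hf', hf'₁, hf'₂⟩ := (hR' S₁ le_rfl _).1 hαR
  have hK : S₁ ⊔ centralizerIn S S₁ ≤ S₁ ⊔ S₂ := by
    rw [hprod.2.2.2.2]; exact sup_le hS₁S inf_le_left
  have hS₂C : S₂ ≤ centralizerIn S S₁ := fun y hy =>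
    mem_centralizerIn_iff.2 ⟨hS₂S hy, fun x hx => hprod.2.2.1 x hx y hy⟩
  have hK' : S ≤ S₁ ⊔ centralizerIn S S₁ := by
    intro s hs
    obtain ⟨a, ha, b, hb, rfl⟩ := dp_decomp hprod hs
    exact Subgroup.mul_mem _ (Subgroup.mem_sup_left ha) (Subgroup.mem_sup_right (hS₂C hb))
  have hφ : IsMap F (S₁ ⊔ centralizerIn S S₁) f' := hf'.restrict hK
  obtain ⟨β, hβ, hβv⟩ := hφ.exists_aut (hφ.img_eq_of_mapsTo (fun x hx => hK' (hφ.mem hx)))
  refine ⟨β, hβ, fun x => ?_, fun c hc => ?_⟩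
  · have h4 := hβv x (Subgroup.mem_sup_left x.2)
    rw [hf'₁ x x.2, autFun_apply α x] at h4
    rw [← h4]
    exact (autFun_apply β (Subgroup.inclusion le_sup_left x)).symm
  · have h4 := hβv c c.2
    rw [autFun_apply β c] at h4
    rw [h4]
    obtain ⟨a, ha, b, hb, hcab⟩ := dp_decomp hprod (inf_le_left (a := S) hc)
    have hac : ∀ x ∈ S₁, x * a = a * x := by
      intro x hx
      have h5 := (mem_centralizerIn_iff.1 hc).2 x hx
      rw [hcab] at h5
      have h6 := hprod.2.2.1 x hx b hb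
      have h7 : x * a * b = a * x * b := by
        calc x * a * b = x * (a * b) := by group
          _ = a * b * x := h5
          _ = a * (b * x) := by group
          _ = a * (x * b) := by rw [h6]
          _ = a * x * b := by group
      exact mul_right_cancel h7
    have hf'c : f' (c : Ω) = autFun α a * b := by
      rw [hcab, hf'.map_mul (Subgroup.mem_sup_left ha) (Subgroup.mem_sup_right hb), hf'₁ a ha,
        hf'₂ b hb]
    rw [hf'c, hcab]
    have hαa : autFun α a ∈ S₁ := autFun_mem α ha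
    have e : (a * b)⁻¹ * (autFun α a * b) = a⁻¹ * autFun α a := by
      have h8 := hprod.2.2.1 (a⁻¹ * autFun α a) (S₁.mul_mem (S₁.inv_mem ha) hαa) b hb
      calc (a * b)⁻¹ * (autFun α a * b) = b⁻¹ * ((a⁻¹ * autFun α a) * b) := by group
        _ = b⁻¹ * (b * (a⁻¹ * autFun α a)) := by rw [h8]
        _ = a⁻¹ * autFun α a := by group
    rw [e]
    exact aut_comm_center α ha hac

end

section

variable [Finite S] {p : ℕ} [Fact p.Prime] {F : FusionSystem S} {S₁ S₂ : Subgroup Ω}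

theorem dpFull_subsystem {R : FusionSystem S₁}
    (hR : ∀ (P : Subgroup Ω), P ≤ S₁ → ∀ f, IsMap R P f ↔ IsMap F P f) : R.IsSubsystemOf F := by
  intro P φ hφ
  have h := isMap_extHom hφ
  exact (isMap_iff_hom F φ).2 ((hR P h.le _).1 h)

/-- the full subsystem on the strongly closed direct factor `S₁` is saturated -/
theorem dpFull_saturated (hF : F.IsSaturated p)
    (hprod : IsInternalDirectProduct S₁ S₂ S) (h₁ : F.StronglyClosed S₁) {R : FusionSystem S₁}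
    (hR : ∀ (P : Subgroup Ω), P ≤ S₁ → ∀ f, IsMap R P f ↔ IsMap F P f) : R.IsSaturated p := by
  have hS₁S : S₁ ≤ S := hprod.1
  intro P hP
  obtain ⟨Ps, hconj, hfa, hrec⟩ := hF P (hP.trans hS₁S)
  obtain ⟨γ, hγ, hγimg⟩ := (Helper88.isConj_iff F).1 hconj
  have hPs : Ps ≤ S₁ := by
    rw [← hγimg]
    intro y hy
    obtain ⟨x, hx, rfl⟩ := hγ.mem_img.1 hy
    exact sc_apply_mem h₁ hγ hx (hP hx)
  have hPsS : Ps ≤ S := hPs.trans hS₁S
  refine ⟨Ps, (Helper88.isConj_iff R).2 ⟨γ, (hR P hP γ).2 hγ, hγimg⟩, ⟨hPs, ?_⟩, hPs,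
    fun Q φ hφ hrange => ?_⟩
  · have hA : R.autGroup Ps = F.autGroup Ps := by
      ext α
      rw [Helper88.mem_autGroup_iff R hPs, Helper88.mem_autGroup_iff F hPsS]
      exact hR Ps hPs _
    show SylIn p (autInducedBy S₁ Ps) (R.autGroup Ps)
    rw [hA, dp_autInducedBy hprod hPs]
    exact hfa.2
  · have hφf : ∀ x : Q, φ x = extHom φ x := fun x => (extHom_apply φ x).symm
    have hf : IsMap R Q (extHom φ) := isMap_extHom hφ
    have hQ : Q ≤ S₁ := hf.le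
    have hfF : IsMap F Q (extHom φ) := (hR Q hQ _).1 hf
    have hfimg : img Q (extHom φ) = Ps := (img_eq_range hφf).trans hrange
    have hEX := fun g => mem_extender_iff (S := S₁) hφf g
    have hNS₁ : extender S₁ Q φ ≤ S₁ := fun g hg => ((hEX g).1 hg).1
    obtain ⟨Ψ, hΨ, hΨv⟩ := receptive_extend hrec hfF hfimg (N := extender S₁ Q φ) (fun g hg => by
      obtain ⟨hgS₁, hgN, h, hh, hc⟩ := (hEX g).1 hg
      exact ⟨hS₁S hgS₁, hgN, h, hS₁S hh, hc⟩)
    have hΨR : IsMap R (extender S₁ Q φ) Ψ := (hR _ hNS₁ _).2 (hΨ.restrict le_sup_left)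
    obtain ⟨ψ, hψ, hψv⟩ := hΨR
    refine ⟨ψ, hψ, fun x hxQ hxN => ?_⟩
    rw [hψv ⟨x, hxN⟩]
    show Ψ x = φ ⟨x, hxQ⟩
    rw [hΨv x hxQ, extHom_apply' φ hxQ]

/-- the full subsystem on the strongly closed direct factor `S₁` is invariant in `F` -/
theorem dpFull_invariant (hS : IsPGroup p S) (hF : F.IsSaturated p)
    (h₁ : F.StronglyClosed S₁) {R : FusionSystem S₁}
    (hR : ∀ (P : Subgroup Ω), P ≤ S₁ → ∀ f, IsMap R P f ↔ IsMap F P f) : R.IsInvariantIn F :=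
  (Cfsg.Agent.S5119.result p hS F hF R (dpFull_subsystem hR) h₁).2
    (strongInv_of_forall (fun P Q hPQ hQ f ψ hf hfQ hψ => by
      have hfF := (hR P (hPQ.trans hQ) f).1 hf
      have hψP : IsMap F P ψ := hψ.restrict hPQ
      obtain ⟨ι, hι, hι1, hι2, -⟩ := hψP.exists_inv
      have hg : IsMap F (img P ψ) (ψ ∘ (f ∘ ι)) :=
        (hι.comp hfF (fun y hy => (hι2 y hy).1)).comp hψ (fun y hy => hfQ _ (hι2 y hy).1)
      have hle : img P ψ ≤ S₁ := by
        intro y hy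
        obtain ⟨x, hx, rfl⟩ := hψP.mem_img.1 hy
        exact sc_apply_mem h₁ hψP hx (hQ (hPQ hx))
      exact ⟨_, (hR _ hle _).2 hg, fun x hx => by
        show ψ (f (ι (ψ x))) = ψ (f x)
        rw [hι1 x hx]⟩))

end

end Cfsg.Agent.Helper85
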