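import Mathlib
import Cfsg.Prelude.Def_FusionSystem
import Cfsg.Agent.Helper88.Fusion
import Cfsg.Agent.Helper88.FusionC
import Cfsg.Agent.Helper84.ModelSub

set_option autoImplicit false
open Cfsg

/-!
# Normal subsystems of the fusion system of a group of characteristic `p` (part A)

Generic group-theoretic lemmas.
-/

namespace Cfsg.Agent.Helper85

open Cfsg.FusionSystem
open Cfsg.Agent.Helper88

/-- if `a` moves `b` by `c` and fixes `c`, then `a ^ n` moves `b` by `c ^ n` -/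
theorem nsg_pow_conj_chain {G : Type*} [Group G] {a b c : G} (h1 : a * b * a⁻¹ = b * c)
    (h2 : a * c * a⁻¹ = c) (n : ℕ) : a ^ n * b * (a ^ n)⁻¹ = b * c ^ n := by
  have hc : Commute a c := by
    have : a * c = c * a := by
      calc a * c = a * c * a⁻¹ * a := by group
        _ = c * a := by rw [h2]
    exact this
  induction n with
  | zero => simp
  | succ n ih =>
    have hcn : a * c ^ n * a⁻¹ = c ^ n := by
      have := (hc.pow_right n).eq
      calc a * c ^ n * a⁻¹ = c ^ n * a * a⁻¹ := by rw [this]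
        _ = c ^ n := by group
    calc a ^ (n + 1) * b * (a ^ (n + 1))⁻¹ = a * (a ^ n * b * (a ^ n)⁻¹) * a⁻¹ := by
          rw [pow_succ', mul_inv_rev]; simp only [mul_assoc]
      _ = a * (b * c ^ n) * a⁻¹ := by rw [ih]
      _ = (a * b * a⁻¹) * (a * c ^ n * a⁻¹) := by group
      _ = b * c ^ (n + 1) := by rw [h1, hcn, pow_succ', mul_assoc]

/-- powers of an automorphism induced by conjugation are induced by conjugation by powers -/
theorem nsg_autFun_pow {G : Type*} [Group G] {U : Subgroup G} {α : MulAut U} {x : G}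
    (h : ∀ u ∈ U, autFun α u = x * u * x⁻¹) (n : ℕ) :
    ∀ u ∈ U, autFun (α ^ n) u = x ^ n * u * (x ^ n)⁻¹ := by
  induction n with
  | zero =>
    intro u hu
    rw [pow_zero, pow_zero, autFun_one hu]
    group
  | succ n ih =>
    intro u hu
    have h1 : autFun (α ^ n) u ∈ U := autFun_mem _ hu
    rw [pow_succ', autFun_mul α (α ^ n) hu, h _ h1, ih u hu, pow_succ', mul_inv_rev]
    simp only [mul_assoc]

/-- a `p`-element of `Aut_F(U)` normalizing the Sylow subgroup `Aut_S(U)` lies in it -/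
theorem nsg_mem_autInducedBy_of_pElement {Ω : Type*} [Group Ω] {S : Subgroup Ω} [Finite S] {p : ℕ}
    [Fact p.Prime] {F : FusionSystem S} {U : Subgroup Ω} (hU : F.IsFullyAutomized p U)
    {γ : MulAut U} (hγ : γ ∈ F.autGroup U) {k : ℕ} (hk : γ ^ p ^ k = 1)
    (hn : ∀ b ∈ autInducedBy S U, γ * b * γ⁻¹ ∈ autInducedBy S U) : γ ∈ autInducedBy S U := by
  obtain ⟨hUS, P₀, hP₀⟩ := hU
  have hfin : Finite U := finite_of_le hUS
  have hp : IsPGroup p (Subgroup.zpowers (⟨γ, hγ⟩ : F.autGroup U)) :=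
    isPGroup_zpowers_of_pow_eq_one (k := k) (Subtype.ext hk)
  have hnorm : (⟨γ, hγ⟩ : F.autGroup U) ∈
      Subgroup.normalizer ((P₀ : Subgroup (F.autGroup U)) : Set (F.autGroup U)) := by
    apply Helper84.mem_normalizer_of_forall_conj_mem
    intro b hb
    rw [hP₀] at hb ⊢
    exact hn b hb
  have h1 := IsPGroup.inf_normalizer_sylow hp P₀
  have h2 : (⟨γ, hγ⟩ : F.autGroup U) ∈ Subgroup.zpowers (⟨γ, hγ⟩ : F.autGroup U) ⊓
      (P₀ : Subgroup (F.autGroup U)) := by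
    rw [← h1]
    exact ⟨Subgroup.mem_zpowers _, hnorm⟩
  have h3 := h2.2
  rw [hP₀] at h3
  exact h3

/-- the elements of `N(U)` acting on `U` like an element of `X` -/
def nsgActLike {G : Type*} [Group G] (U X : Subgroup G) : Subgroup G where
  carrier := {g | g ∈ Subgroup.normalizer (U : Set G) ∧ ∃ y ∈ X, ∀ u ∈ U, y * u * y⁻¹ = g * u * g⁻¹}
  one_mem' := ⟨Subgroup.one_mem _, 1, X.one_mem, fun _ _ => rfl⟩
  mul_mem' := by
    rintro g₁ g₂ ⟨hg₁, y₁, hy₁, h₁⟩ ⟨hg₂, y₂, hy₂, h₂⟩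
    refine ⟨Subgroup.mul_mem _ hg₁ hg₂, y₁ * y₂, X.mul_mem hy₁ hy₂, fun u hu => ?_⟩
    have hu2 : g₂ * u * g₂⁻¹ ∈ U := (Subgroup.mem_normalizer_iff.mp hg₂ u).mp hu
    calc y₁ * y₂ * u * (y₁ * y₂)⁻¹ = y₁ * (y₂ * u * y₂⁻¹) * y₁⁻¹ := by group
      _ = y₁ * (g₂ * u * g₂⁻¹) * y₁⁻¹ := by rw [h₂ u hu]
      _ = g₁ * (g₂ * u * g₂⁻¹) * g₁⁻¹ := h₁ _ hu2
      _ = g₁ * g₂ * u * (g₁ * g₂)⁻¹ := by group
  inv_mem' := by
    rintro g ⟨hg, y, hy, h⟩
    refine ⟨Subgroup.inv_mem _ hg, y⁻¹, X.inv_mem hy, fun u hu => ?_⟩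
    have hu2 : g⁻¹ * u * g ∈ U := by
      have := (Subgroup.mem_normalizer_iff.mp (Subgroup.inv_mem _ hg) u).mp hu
      simpa using this
    have h3 := h _ hu2
    have h4 : g * (g⁻¹ * u * g) * g⁻¹ = u := by group
    rw [h4] at h3
    calc y⁻¹ * u * y⁻¹⁻¹ = y⁻¹ * (y * (g⁻¹ * u * g) * y⁻¹) * y := by rw [h3, inv_inv]
      _ = g⁻¹ * u * g⁻¹⁻¹ := by group

/-- the `p`/`p'` coset argument: an element `x w` with `x ∈ X`, `w` acting on `U` with `p`-power order and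
normalizing `X`, and `x w` acting on `U` with order prime to `p`, acts on `U` like an element of `X` -/
theorem nsg_mem_actLike {G : Type*} [Group G] {p : ℕ} (U X : Subgroup G)
    (hXU : X ≤ Subgroup.normalizer (U : Set G)) {x w : G} (hx : x ∈ X)
    (hwU : w ∈ Subgroup.normalizer (U : Set G)) (hwX : ∀ y ∈ X, w * y * w⁻¹ ∈ X) {k m : ℕ}
    (hw : w ^ p ^ k ∈ Subgroup.centralizer (U : Set G)) (hm : m.Coprime p)
    (hxw : (x * w) ^ m ∈ Subgroup.centralizer (U : Set G)) :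
    ∃ y ∈ X, ∀ u ∈ U, y * u * y⁻¹ = (x * w) * u * (x * w)⁻¹ := by
  have hxwN : x * w ∈ Subgroup.normalizer (U : Set G) := Subgroup.mul_mem _ (hXU hx) hwU
  -- powers of `x w`
  have hpow : ∀ j : ℕ, ∃ y ∈ X, (x * w) ^ j = y * w ^ j := by
    intro j
    induction j with
    | zero => exact ⟨1, X.one_mem, by simp⟩
    | succ j ih =>
      obtain ⟨y, hy, hj⟩ := ih
      refine ⟨x * (w * y * w⁻¹), X.mul_mem hx (hwX y hy), ?_⟩
      rw [pow_succ', hj, pow_succ']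
      group
  have hcent : ∀ c ∈ Subgroup.centralizer (U : Set G), ∀ u ∈ U, c * u * c⁻¹ = u := by
    intro c hc u hu
    have := Subgroup.mem_centralizer_iff.mp hc u hu
    rw [← this]; group
  have h1 : (x * w) ^ p ^ k ∈ nsgActLike U X := by
    obtain ⟨y, hy, hj⟩ := hpow (p ^ k)
    refine ⟨Subgroup.pow_mem _ hxwN _, y, hy, fun u hu => ?_⟩
    rw [hj]
    calc y * u * y⁻¹ = y * (w ^ p ^ k * u * (w ^ p ^ k)⁻¹) * y⁻¹ := by rw [hcent _ hw u hu]
      _ = y * w ^ p ^ k * u * (y * w ^ p ^ k)⁻¹ := by group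
  have h2 : (x * w) ^ m ∈ nsgActLike U X := by
    refine ⟨Subgroup.pow_mem _ hxwN _, 1, X.one_mem, fun u hu => ?_⟩
    rw [hcent _ hxw u hu]; group
  have hcop : Nat.Coprime (p ^ k) m := Nat.Coprime.pow_left k hm.symm
  have hgcd := Int.gcd_eq_gcd_ab ((p ^ k : ℕ) : ℤ) (m : ℤ)
  rw [Int.gcd_natCast_natCast, hcop.gcd_eq_one] at hgcd
  have h3 : x * w = ((x * w) ^ p ^ k) ^ (Int.gcdA ((p ^ k : ℕ) : ℤ) (m : ℤ)) *
      ((x * w) ^ m) ^ (Int.gcdB ((p ^ k : ℕ) : ℤ) (m : ℤ)) := by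
    rw [← zpow_natCast (x * w) (p ^ k), ← zpow_natCast (x * w) m, ← zpow_mul, ← zpow_mul, ← zpow_add,
      ← hgcd]
    simp
  have h4 : x * w ∈ nsgActLike U X := by
    rw [h3]
    exact Subgroup.mul_mem _ (Subgroup.zpow_mem _ h1 _) (Subgroup.zpow_mem _ h2 _)
  exact h4.2

/-- maps of the fusion system of a group -/
theorem nsg_isMap_groupFS_iff {G : Type*} [Group G] (S P : Subgroup G) (f : G → G) :
    IsMap (groupFusionSystem S) P f ↔
      P ≤ S ∧ (∀ x ∈ P, f x ∈ S) ∧ ∃ g : G, ∀ x ∈ P, f x = g * x * g⁻¹ := by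
  constructor
  · rintro ⟨φ, ⟨hP, hφS, g, hg⟩, hf⟩
    refine ⟨hP, fun x hx => ?_, g, fun x hx => ?_⟩
    · rw [← hf ⟨x, hx⟩]; exact hφS ⟨x, hx⟩
    · rw [← hf ⟨x, hx⟩]; exact hg ⟨x, hx⟩
  · rintro ⟨hP, hS, g, hg⟩
    refine ⟨conjHom P g, ⟨hP, fun x => ?_, g, fun x => rfl⟩, fun x => (hg x x.2).symm⟩
    have h1 : conjHom P g x = g * (x : G) * g⁻¹ := rfl
    rw [h1, ← hg x x.2]
    exact hS x x.2

/-- maps of the fusion system of a subgroup on a subgroup -/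
theorem nsg_isMap_subFS_iff {G : Type*} [Group G] (H T : Subgroup G) (hTH : T ≤ H) (P : Subgroup G)
    (f : G → G) :
    IsMap (fusionSystemOfSubgroup H T hTH) P f ↔
      P ≤ T ∧ (∀ x ∈ P, f x ∈ T) ∧ ∃ g ∈ H, ∀ x ∈ P, f x = g * x * g⁻¹ := by
  constructor
  · rintro ⟨φ, ⟨hP, hφS, g, hgH, hg⟩, hf⟩
    refine ⟨hP, fun x hx => ?_, g, hgH, fun x hx => ?_⟩
    · rw [← hf ⟨x, hx⟩]; exact hφS ⟨x, hx⟩
    · rw [← hf ⟨x, hx⟩]; exact hg ⟨x, hx⟩
  · rintro ⟨hP, hS, g, hgH, hg⟩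
    refine ⟨conjHom P g, ⟨hP, fun x => ?_, g, hgH, fun x => rfl⟩, fun x => (hg x x.2).symm⟩
    have h1 : conjHom P g x = g * (x : G) * g⁻¹ := rfl
    rw [h1, ← hg x x.2]
    exact hS x x.2

end Cfsg.Agent.Helper85
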