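import Cfsg.Agent.Helper88.RealNormal
import Cfsg.Agent.Helper86.Hyperfocal
import Cfsg.Agent.Helper84.FusionFocal

/-!
# Residual series: the hyperfocal subgroup of a realized system lies in `O^p` of the group, and the
subsystem induced by `O^p` has `p`-power index (helper85; pieces E2a, E3 of the S5156 plan)
-/

set_option autoImplicit false

namespace Cfsg.Agent.Helper85

open Cfsg Cfsg.FusionSystem

variable {Ω : Type*} [Group Ω] {S : Subgroup Ω}

theorem s5156_hyp_le_pre {p : ℕ} [Fact p.Prime] (E : FusionSystem S) {H : Type*} [Group H] [Finite H]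
    (ι : S →* H)
    (hco : ∀ (P : Subgroup Ω) (hP : P ≤ S) (a : MulAut P), a ∈ E.autGroup P → (orderOf a).Coprime p →
      ∃ g ∈ pResidual p H, ∀ x : P, ι ⟨(a x : P), hP (a x).2⟩ = g * ι ⟨x, hP x.2⟩ * g⁻¹) :
    E.hyperfocalSubgroup p ≤ Helper88.pre ι (pResidual p H) := by
  haveI hN : (pResidual p H).Normal := Helper84.pResidual_normal p
  apply Helper86.hyperfocal_le_of_forall_coprime
  intro P hP a ha x
  obtain ⟨g, hg, hgx⟩ := hco P hP (a : MulAut P) a.2 (by rw [Subgroup.orderOf_coe]; exact ha)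
  rw [Helper88.mem_pre]
  have hmem : (x : Ω)⁻¹ * (((a : MulAut P) x : P) : Ω) ∈ S :=
    S.mul_mem (S.inv_mem (hP x.2)) (hP ((a : MulAut P) x).2)
  refine ⟨hmem, ?_⟩
  rw [Helper88.iext_apply ι hmem]
  have e : (⟨(x : Ω)⁻¹ * (((a : MulAut P) x : P) : Ω), hmem⟩ : S) =
      (⟨x, hP x.2⟩ : S)⁻¹ * ⟨((a : MulAut P) x : P), hP ((a : MulAut P) x).2⟩ := rfl
  rw [e, map_mul, map_inv, hgx x]
  have h1 : (ι ⟨x, hP x.2⟩)⁻¹ * g * (ι ⟨x, hP x.2⟩)⁻¹⁻¹ ∈ pResidual p H := hN.conj_mem g hg _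
  have e2 : (ι ⟨x, hP x.2⟩)⁻¹ * (g * ι ⟨x, hP x.2⟩ * g⁻¹) =
      ((ι ⟨x, hP x.2⟩)⁻¹ * g * (ι ⟨x, hP x.2⟩)⁻¹⁻¹) * g⁻¹ := by group
  rw [e2]
  exact Subgroup.mul_mem _ h1 (Subgroup.inv_mem _ hg)

/-- E2a -/
theorem s5156_hyp_le {p : ℕ} [Fact p.Prime] (E : FusionSystem S) {H : Type*} [Group H] [Finite H]
    (ι : S →* H) (hreal : E.IsRealizedBy ι)
    (hco : ∀ (P : Subgroup Ω) (hP : P ≤ S) (a : MulAut P), a ∈ E.autGroup P → (orderOf a).Coprime p →
      ∃ g ∈ pResidual p H, ∀ x : P, ι ⟨(a x : P), hP (a x).2⟩ = g * ι ⟨x, hP x.2⟩ * g⁻¹)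
    (s : S) (hs : (s : Ω) ∈ E.hyperfocalSubgroup p) : ι s ∈ pResidual p H := by
  have h2 := s5156_hyp_le_pre E ι hco hs
  rw [Helper88.mem_pre] at h2
  have h3 := h2.2
  rw [Helper88.iext_apply ι s.2] at h3
  exact h3

/-- E3 -/
theorem s5156_nsub_index {p : ℕ} [Fact p.Prime] (E : FusionSystem S) {H : Type*} [Group H] [Finite H]
    (ι : S →* H) (hreal : E.IsRealizedBy ι)
    (hco : ∀ (P : Subgroup Ω) (hP : P ≤ S) (a : MulAut P), a ∈ E.autGroup P → (orderOf a).Coprime p →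
      ∃ g ∈ pResidual p H, ∀ x : P, ι ⟨(a x : P), hP (a x).2⟩ = g * ι ⟨x, hP x.2⟩ * g⁻¹)
    (hle : E.hyperfocalSubgroup p ≤ Helper88.pre ι (pResidual p H)) :
    (Helper88.nsub hreal.1 (pResidual p H)).HasPPowerIndexIn E p := by
  refine ⟨?_, hle, ?_⟩
  · intro P φ hφ
    rw [Helper88.mem_nsub] at hφ
    obtain ⟨hP, hφP, n, hn, hnx⟩ := hφ
    have hPS : P ≤ S := hP.trans (Helper88.pre_le ι _)
    have hφS : ∀ x : P, φ x ∈ S := fun x => Helper88.pre_le ι _ (hφP x)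
    exact (Helper88.realized_iff hreal hPS φ hφS).2 ⟨n, hnx⟩
  · intro P hP
    have hPS : P ≤ S := hP.trans (Helper88.pre_le ι _)
    rw [Subgroup.map_le_iff_le_comap]
    unfold pResidual
    rw [Subgroup.closure_le]
    intro a ha
    show (a : MulAut P) ∈ (Helper88.nsub hreal.1 (Subgroup.closure {g : H | (orderOf g).Coprime p})).autGroup P
    obtain ⟨g, hg, hgx⟩ := hco P hPS (a : MulAut P) a.2 (by rw [Subgroup.orderOf_coe]; exact ha)
    apply Subgroup.subset_closure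
    show P.subtype.comp (a : MulAut P).toMonoidHom ∈
      (Helper88.nsub hreal.1 (Subgroup.closure {g : H | (orderOf g).Coprime p})).Hom P
    rw [Helper88.mem_nsub]
    refine ⟨hP, fun x => hP ((a : MulAut P) x).2, g, hg, fun x => ?_⟩
    rw [Helper88.iext_apply ι (hPS x.2)]
    have e : (P.subtype.comp (a : MulAut P).toMonoidHom) x = (((a : MulAut P) x : P) : Ω) := rfl
    rw [e, Helper88.iext_apply ι (hPS ((a : MulAut P) x).2)]
    exact hgx x

end Cfsg.Agent.Helper85
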