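import Mathlib
import Cfsg.Prelude.Def_GeometricClasses
import Cfsg.Prelude.Def_Classical
import Cfsg.Agent.Helper65.S74Defs
import Cfsg.Agent.Helper98.ELPMain
import Cfsg.Agent.Helper47.ELPT0KER
import Cfsg.Agent.Helper36.AltEven
import Cfsg.Agent.Helper80.TSR2TSB
import Cfsg.Agent.Helper35.TSSTDP

set_option autoImplicit false

/-!
# CALL S74 (helper65; row S5974), stage T2B (`r = p = 2`, `⟹`), solo proof by helper85.

`d` even: the Siegel element `x = sieg (t0 d F)` lies in `Ω`, has `x ^ 2 = 1`, is not scalar, and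
every `x`-invariant nondegenerate subspace has dimension divisible by `4`.
With `π v = v ∘ inr`, `A = t0 - t0ᵀ` (injective for `d` even) and `L a = (A a, 0)`:
`x v - v = L (π v)`; for an invariant nondegenerate `W`: `L (π W) ≤ W ⊓ ker π`, `ker π` is totally
singular, so `dim W = 2 dim (π W)`; and `(a, b) ↦ (A a) ⬝ b` is alternating and left-nondegenerate
on `π W`, so `dim (π W)` is even.
-/

namespace Cfsg.Agent.Helper85.S74

open Module Cfsg Cfsg.Geo Cfsg.Agent.Helper65.S74 Cfsg.Agent.Helper98.ELP Matrix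
open scoped MatrixGroups

variable {F : Type*} [Field F] [Fintype F]

/-- the projection `v ↦ v ∘ inr`. -/
def s74t2bPi (d : ℕ) (F : Type*) [Field F] : (Fin d ⊕ Fin d → F) →ₗ[F] (Fin d → F) :=
  LinearMap.funLeft F F Sum.inr

/-- `a ↦ (A a, 0)`. -/
def s74t2bL (d : ℕ) (F : Type*) [Field F] (A : Matrix (Fin d) (Fin d) F) :
    (Fin d → F) →ₗ[F] (Fin d ⊕ Fin d → F) where
  toFun a := Sum.elim (A *ᵥ a) 0
  map_add' a b := by
    funext x
    cases x <;> simp [Matrix.mulVec_add]
  map_smul' c a := by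
    funext x
    cases x <;> simp [Matrix.mulVec_smul]

theorem s74t2b_N (d : ℕ) (v : Fin d ⊕ Fin d → F) :
    siegM (t0 d F) *ᵥ v - v = s74t2bL d F (t0 d F - (t0 d F)ᵀ) (s74t2bPi d F v) := by
  funext x
  cases x with
  | inl i =>
    show (siegM (t0 d F) *ᵥ v) (Sum.inl i) - v (Sum.inl i)
      = ((t0 d F - (t0 d F)ᵀ) *ᵥ fun j => v (Sum.inr j)) i
    rw [Cfsg.Agent.Helper47.ELP.siegM_mulVec_inl]
    ring
  | inr i =>
    show (siegM (t0 d F) *ᵥ v) (Sum.inr i) - v (Sum.inr i) = 0
    rw [Cfsg.Agent.Helper47.ELP.siegM_mulVec_inr, sub_self]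

theorem s74t2b_polar (d : ℕ) (u v : Fin d ⊕ Fin d → F) :
    QuadraticMap.polar (Cfsg.quadFormPlus d F) u v
      = ∑ i, (u (.inl i) * v (.inr i) + v (.inl i) * u (.inr i)) := by
  unfold QuadraticMap.polar Cfsg.quadFormPlus
  simp only [Pi.add_apply]
  rw [← Finset.sum_sub_distrib, ← Finset.sum_sub_distrib]
  exact Finset.sum_congr rfl (fun i _ => by ring)

theorem s74t2b_polar_L (d : ℕ) (A : Matrix (Fin d) (Fin d) F) (a : Fin d → F)
    (v : Fin d ⊕ Fin d → F) :
    QuadraticMap.polar (Cfsg.quadFormPlus d F) (s74t2bL d F A a) v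
      = (A *ᵥ a) ⬝ᵥ (s74t2bPi d F v) := by
  rw [s74t2b_polar, dotProduct]
  refine Finset.sum_congr rfl (fun i _ => ?_)
  show (A *ᵥ a) i * v (Sum.inr i) + v (Sum.inl i) * 0 = (A *ᵥ a) i * v (Sum.inr i)
  ring

theorem s74t2b_L_inj (d : ℕ) (hde : Even d) :
    Function.Injective (s74t2bL d F (t0 d F - (t0 d F)ᵀ)) := by
  rw [← LinearMap.ker_eq_bot, LinearMap.ker_eq_bot']
  intro a ha
  have h0 : (t0 d F - (t0 d F)ᵀ) *ᵥ a = 0 := by
    funext i
    have := congrFun ha (Sum.inl i)
    exact this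
  funext b
  refine Cfsg.Agent.Helper47.ELP.t0_ker d a h0 b ?_
  obtain ⟨k, hk⟩ := hde
  have := b.isLt
  omega

theorem s74t2b_alt (d : ℕ) (T : Matrix (Fin d) (Fin d) F) (a : Fin d → F) :
    ((T - Tᵀ) *ᵥ a) ⬝ᵥ a = 0 := by
  rw [Matrix.sub_mulVec, sub_dotProduct, Matrix.mulVec_transpose, ← Matrix.dotProduct_mulVec,
    dotProduct_comm a (T *ᵥ a), sub_self]

/-- every invariant nondegenerate subspace of the Siegel element `sieg (t0 d F)`, `d` even, has
dimension divisible by `4`. -/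
theorem s74t2b_dim (d : ℕ) (hde : Even d) (W : Submodule F (Fin d ⊕ Fin d → F))
    (hnd : IsNondegenerateOn (QuadraticMap.polar (Cfsg.quadFormPlus d F)) W)
    (hinv : W.map (Matrix.toLin' (siegM (t0 d F))) ≤ W) :
    4 ∣ finrank F W := by
  classical
  set A : Matrix (Fin d) (Fin d) F := t0 d F - (t0 d F)ᵀ with hA
  set π := s74t2bPi d F with hπ
  set L := s74t2bL d F A with hL
  have hLinj : Function.Injective L := s74t2b_L_inj d hde
  -- `L (π w) ∈ W` for `w ∈ W`
  have hLW : ∀ w ∈ W, L (π w) ∈ W := by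
    intro w hw
    have h1 : Matrix.toLin' (siegM (t0 d F)) w ∈ W := hinv (Submodule.mem_map_of_mem hw)
    rw [Matrix.toLin'_apply] at h1
    have h2 := W.sub_mem h1 hw
    rw [s74t2b_N] at h2
    exact h2
  have hπL : ∀ a, π (L a) = 0 := by
    intro a
    funext j
    rfl
  -- the three subspaces
  set W' : Submodule F (Fin d → F) := W.map π with hW'
  set K : Submodule F (Fin d ⊕ Fin d → F) := W ⊓ LinearMap.ker π with hK
  -- (b) finrank W' ≤ finrank K
  have hb : finrank F W' ≤ finrank F K := by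
    have h1 : finrank F W' = finrank F (W'.map L) :=
      LinearEquiv.finrank_eq (Submodule.equivMapOfInjective L hLinj W')
    rw [h1]
    apply Submodule.finrank_mono
    rintro _ ⟨a, ⟨w, hw, rfl⟩, rfl⟩
    exact ⟨hLW w hw, LinearMap.mem_ker.mpr (hπL _)⟩
  -- (c) 2 finrank K ≤ finrank W
  have hc : 2 * finrank F K ≤ finrank F W := by
    refine Cfsg.Agent.Helper80.TSR2.r2_ts_bound (Cfsg.quadFormPlus d F)
      (Cfsg.Agent.Helper35.TS5973.ts_std_plus d).1 W K hnd inf_le_left ?_
    intro u hu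
    have hu0 : π u = 0 := LinearMap.mem_ker.mp hu.2
    unfold Cfsg.quadFormPlus
    refine Finset.sum_eq_zero (fun i _ => ?_)
    have : u (Sum.inr i) = 0 := congrFun hu0 i
    rw [this, mul_zero]
  -- (d) rank-nullity
  have hd : finrank F W' + finrank F K = finrank F W := by
    have h1 := LinearMap.finrank_range_add_finrank_ker (π.domRestrict W)
    rw [LinearMap.range_domRestrict, LinearMap.ker_domRestrict] at h1
    have h2 : finrank F ↥(Submodule.comap W.subtype (LinearMap.ker π)) = finrank F K := by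
      rw [← Submodule.finrank_map_subtype_eq W (Submodule.comap W.subtype (LinearMap.ker π)),
        Submodule.map_comap_subtype]
    rw [h2] at h1
    exact h1
  -- (e) finrank W' is even
  have he : Even (finrank F W') := by
    let B : W' →ₗ[F] W' →ₗ[F] F := ((Matrix.toLinearMap₂' F A).flip).domRestrict₁₂ W' W'
    have hB : ∀ a b : W', B a b = (A *ᵥ (a : Fin d → F)) ⬝ᵥ (b : Fin d → F) := by
      intro a b
      show (Matrix.toLinearMap₂' F A) (b : Fin d → F) (a : Fin d → F) = _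
      rw [Matrix.toLinearMap₂'_apply', dotProduct_comm]
    refine Cfsg.Agent.Helper36.even_finrank_of_alt (F := F) (finrank F W') W' B ?_ ?_ rfl
    · intro a
      rw [hB, hA]
      exact s74t2b_alt d (t0 d F) _
    · intro a ha
      obtain ⟨w₁, hw₁, hw₁a⟩ := a.2
      have hzero : L (π w₁) = 0 := by
        by_contra hne
        obtain ⟨x, hx, hx0⟩ := (hnd (L (π w₁)) (hLW w₁ hw₁) hne).2
        apply hx0
        rw [hL, s74t2b_polar_L]
        have := ha ⟨π x, Submodule.mem_map_of_mem hx⟩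
        rw [hB] at this
        rw [hw₁a]
        exact this
      have hπ0 : π w₁ = 0 := hLinj (by rw [hzero, map_zero])
      apply Subtype.ext
      rw [← hw₁a, hπ0]
      rfl
  obtain ⟨j, hj⟩ := he
  exact ⟨j, by omega⟩

/-- T2B [BIG, NEW] (`r = p = 2`, `⟹`): `d` even, `m ≡ 2 (4)`: the Siegel element
`x = [[1, A], [0, 1]]`, `A` alternating of rank `d` (`x ∈ Ω`: `Cfsg.Agent.Helper98.ELP.sieg_mem_omega`,
all characteristics).  `polar v (x v) = 0` for all `v`, `ker (x - 1) = range (x - 1)`; for an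
invariant nondegenerate `W`: `rank ((x - 1)|W) = dim W / 2` and the form `(u, v) ↦ polar u ((x-1) v)`
is alternating nondegenerate on `W / ker`, so `dim W / 2` is even: no invariant nondegenerate
subspace of dimension `≡ 2 (4)`. -/
theorem s74_two_even_bad {p : ℕ} [Fact p.Prime] [CharP F p] {q : ℕ} (hq : Fintype.card F = q)
    (d m : ℕ) (hd : 4 ≤ d) (hm : 2 ≤ m) (hme : Even m) (hmd : m < d) (hp2 : p = 2)
    (hall : AllHyp (Cfsg.quadFormPlus d F) 2 m) :
    (2 * d) % 4 = 2 ∨ m % 4 = 0 ∨ q % 4 = 1 := by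
  rcases Nat.even_or_odd d with hde | hdo
  · right; left
    have h0 : p • t0 d F = 0 := by
      ext a b
      simp [Matrix.smul_apply]
    have hpow : (sieg (t0 d F)) ^ 2 = 1 := by
      rw [← hp2, Cfsg.Agent.Helper74.ELP.sieg_pow, h0, sieg_zero]
    have hΩ : sieg (t0 d F) ∈ Cfsg.Geo.omegaGL (Cfsg.quadFormPlus d F) := by
      have h := sieg_mem_omega (n := Fin d) (F := F) (by simp; omega) (t0 d F)
      exact h
    have hx := hall (sieg (t0 d F)) hΩ ⟨1, by rw [hpow, one_smul]; rfl⟩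
      (fun z => sieg_nonscalar _ (Cfsg.Agent.Helper74.ELP.t0_ne d (by omega)) z)
    obtain ⟨W, ⟨hdim, hnd, -⟩, hinv⟩ := (invHyp_iff _ _ _).mp hx
    have h4 := s74t2b_dim d hde W hnd hinv
    rw [hdim] at h4
    omega
  · left
    obtain ⟨k, hk⟩ := hdo
    omega

end Cfsg.Agent.Helper85.S74
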