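import Mathlib
import Cfsg.Prelude.Def_GeometricClasses
import Cfsg.Prelude.Def_Classical
import Cfsg.Agent.Helper35.S88Defs
import Cfsg.Agent.Helper35.TSSTDM
import Cfsg.Agent.Helper85.S74T2B

set_option autoImplicit false

/-!
# CALL S90 (row S5990), stage T2B (`r = p = 2`, `⟹`), solo proof by helper85
(port of `Cfsg.Agent.Helper85.S74T2B` to the minus form).

`d` odd: `x = fromBlocks (siegM (t0 (d - 1) F)) 0 0 1` lies in `Ω⁻`, `x ^ 2 = 1`, `x` is not scalar,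
and every `x`-invariant nondegenerate subspace `W` with `4 ∣ dim W` is of plus type.
-/

namespace Cfsg.Agent.Helper85.S90

open Module Cfsg Cfsg.Geo Cfsg.Agent.Helper35.S88 Cfsg.Agent.Helper98.ELP Matrix
  Cfsg.Agent.Helper85.S74
open scoped MatrixGroups

variable {F : Type*} [Field F] [Fintype F]

/-- the block embedding `M ↦ fromBlocks M 0 0 1`. -/
def s90Emb (n : ℕ) (F : Type*) [Field F] :
    Matrix (Fin n ⊕ Fin n) (Fin n ⊕ Fin n) F →*
      Matrix ((Fin n ⊕ Fin n) ⊕ Fin 2) ((Fin n ⊕ Fin n) ⊕ Fin 2) F where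
  toFun M := Matrix.fromBlocks M 0 0 1
  map_one' := Matrix.fromBlocks_one
  map_mul' M N := by simp [Matrix.fromBlocks_multiply]

/-- `u ↦ (u, 0)`. -/
def s90Elim (n : ℕ) (F : Type*) [Field F] :
    (Fin n ⊕ Fin n → F) →ₗ[F] ((Fin n ⊕ Fin n) ⊕ Fin 2 → F) where
  toFun u := Sum.elim u 0
  map_add' u v := by
    funext x
    cases x <;> simp
  map_smul' c u := by
    funext x
    cases x <;> simp

theorem s90_mulVec (n : ℕ) (M : Matrix (Fin n ⊕ Fin n) (Fin n ⊕ Fin n) F)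
    (v : (Fin n ⊕ Fin n) ⊕ Fin 2 → F) :
    (Matrix.fromBlocks M 0 0 1 : Matrix ((Fin n ⊕ Fin n) ⊕ Fin 2) ((Fin n ⊕ Fin n) ⊕ Fin 2) F) *ᵥ v
      = Sum.elim (M *ᵥ fun j => v (Sum.inl j)) (fun k => v (Sum.inr k)) := by
  have hv : v = Sum.elim (fun j => v (Sum.inl j)) (fun k => v (Sum.inr k)) := by
    funext x; cases x <;> rfl
  conv_lhs => rw [hv]
  rw [Matrix.fromBlocks_mulVec]
  simp

theorem s90_minus_eq (n : ℕ) (a b : F) (v : (Fin n ⊕ Fin n) ⊕ Fin 2 → F) :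
    Cfsg.quadFormMinus n F a b v = Cfsg.quadFormPlus n F (fun j => v (Sum.inl j))
      + (v (.inr 0) ^ 2 + a * v (.inr 0) * v (.inr 1) + b * v (.inr 1) ^ 2) := rfl

/-- the block embedding maps isometries of the plus form to isometries of the minus form. -/
theorem s90_emb_iso (n : ℕ) (a b : F) (g : GL (Fin n ⊕ Fin n) F)
    (hg : g ∈ Cfsg.isometryGroup F (Cfsg.quadFormPlus n F)) :
    Units.map (s90Emb n F) g ∈ Cfsg.isometryGroup F (Cfsg.quadFormMinus n F a b) := by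
  refine fun u _ => ?_
  show Cfsg.quadFormMinus n F a b
    ((Matrix.fromBlocks (g : Matrix (Fin n ⊕ Fin n) (Fin n ⊕ Fin n) F) 0 0 1 :
      Matrix ((Fin n ⊕ Fin n) ⊕ Fin 2) ((Fin n ⊕ Fin n) ⊕ Fin 2) F) *ᵥ u)
    = Cfsg.quadFormMinus n F a b u
  rw [s90_mulVec, s90_minus_eq, s90_minus_eq]
  have h1 := hg (fun j => u (Sum.inl j)) (fun j => u (Sum.inl j))
  simp only [Sum.elim_inl, Sum.elim_inr]
  rw [show Cfsg.quadFormPlus n F ((g : Matrix (Fin n ⊕ Fin n) (Fin n ⊕ Fin n) F) *ᵥ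
    fun j => u (Sum.inl j)) = Cfsg.quadFormPlus n F (fun j => u (Sum.inl j)) from h1]

/-- the block embedding maps `Ω⁺` into `Ω⁻`. -/
theorem s90_emb_omega (n : ℕ) (a b : F) (g : GL (Fin n ⊕ Fin n) F)
    (hg : g ∈ Cfsg.Geo.omegaGL (Cfsg.quadFormPlus n F)) :
    Units.map (s90Emb n F) g ∈ Cfsg.Geo.omegaGL (Cfsg.quadFormMinus n F a b) := by
  obtain ⟨y, hy, rfl⟩ := hg
  let φ : Cfsg.isometryGroup F (Cfsg.quadFormPlus n F) →*
      Cfsg.isometryGroup F (Cfsg.quadFormMinus n F a b) :=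
    ((Units.map (s90Emb n F)).comp (Cfsg.isometryGroup F (Cfsg.quadFormPlus n F)).subtype).codRestrict
      _ (fun z => s90_emb_iso n a b z z.2)
  refine ⟨φ y, ?_, rfl⟩
  have h1 : φ y ∈ Subgroup.map φ (commutator (Cfsg.isometryGroup F (Cfsg.quadFormPlus n F))) :=
    Subgroup.mem_map_of_mem φ hy
  rw [commutator_def, Subgroup.map_commutator] at h1
  exact Subgroup.commutator_mono le_top le_top h1

theorem s90_polar_elim (n : ℕ) (a b : F) (u₁ : Fin n ⊕ Fin n → F)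
    (v : (Fin n ⊕ Fin n) ⊕ Fin 2 → F) :
    QuadraticMap.polar (Cfsg.quadFormMinus n F a b) (s90Elim n F u₁) v
      = QuadraticMap.polar (Cfsg.quadFormPlus n F) u₁ (fun j => v (Sum.inl j)) := by
  unfold QuadraticMap.polar
  rw [s90_minus_eq, s90_minus_eq, s90_minus_eq]
  show Cfsg.quadFormPlus n F (u₁ + fun j => v (Sum.inl j))
      + ((0 + v (.inr 0)) ^ 2 + a * (0 + v (.inr 0)) * (0 + v (.inr 1)) + b * (0 + v (.inr 1)) ^ 2)
      - (Cfsg.quadFormPlus n F u₁ + ((0 : F) ^ 2 + a * 0 * 0 + b * 0 ^ 2))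
      - (Cfsg.quadFormPlus n F (fun j => v (Sum.inl j))
        + (v (.inr 0) ^ 2 + a * v (.inr 0) * v (.inr 1) + b * v (.inr 1) ^ 2))
    = Cfsg.quadFormPlus n F (u₁ + fun j => v (Sum.inl j)) - Cfsg.quadFormPlus n F u₁
      - Cfsg.quadFormPlus n F (fun j => v (Sum.inl j))
  ring

/-- every invariant nondegenerate subspace `W` of `x = sieg (t0 n F) ⊕ 1`, `n` even, with
`4 ∣ dim W` is of plus type. -/
theorem s90t2b_plus (n : ℕ) (hne : Even n) (a b : F)
    (hab : ∀ x y : F, x ^ 2 + a * x * y + b * y ^ 2 = 0 → x = 0 ∧ y = 0)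
    (W : Submodule F ((Fin n ⊕ Fin n) ⊕ Fin 2 → F))
    (hnd : IsNondegenerateOn (QuadraticMap.polar (Cfsg.quadFormMinus n F a b)) W)
    (hinv : W.map (Matrix.toLin' (Matrix.fromBlocks (siegM (t0 n F)) 0 0 1 :
      Matrix ((Fin n ⊕ Fin n) ⊕ Fin 2) ((Fin n ⊕ Fin n) ⊕ Fin 2) F)) ≤ W)
    (h4 : 4 ∣ finrank F W) :
    IsPlusTypeOn (Cfsg.quadFormMinus n F a b) W := by
  classical
  set A : Matrix (Fin n) (Fin n) F := t0 n F - (t0 n F)ᵀ with hA
  let ι₁ : ((Fin n ⊕ Fin n) ⊕ Fin 2 → F) →ₗ[F] (Fin n ⊕ Fin n → F) := LinearMap.funLeft F F Sum.inl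
  let ρ : ((Fin n ⊕ Fin n) ⊕ Fin 2 → F) →ₗ[F] (Fin 2 → F) := LinearMap.funLeft F F Sum.inr
  set π : ((Fin n ⊕ Fin n) ⊕ Fin 2 → F) →ₗ[F] (Fin n → F) := (s74t2bPi n F).comp ι₁ with hπ
  set L : (Fin n → F) →ₗ[F] ((Fin n ⊕ Fin n) ⊕ Fin 2 → F) :=
    (s90Elim n F).comp (s74t2bL n F A) with hL
  have hLinj : Function.Injective L := by
    intro x y hxy
    apply s74t2b_L_inj n hne
    funext j
    exact congrFun hxy (Sum.inl j)
  have hN : ∀ v : (Fin n ⊕ Fin n) ⊕ Fin 2 → F,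
      (Matrix.fromBlocks (siegM (t0 n F)) 0 0 1 :
        Matrix ((Fin n ⊕ Fin n) ⊕ Fin 2) ((Fin n ⊕ Fin n) ⊕ Fin 2) F) *ᵥ v - v = L (π v) := by
    intro v
    rw [s90_mulVec]
    funext x
    cases x with
    | inl y =>
      show (siegM (t0 n F) *ᵥ fun j => v (Sum.inl j)) y - v (Sum.inl y)
        = s74t2bL n F A (s74t2bPi n F (fun j => v (Sum.inl j))) y
      rw [hA, ← s74t2b_N]
      rfl
    | inr k =>
      show v (Sum.inr k) - v (Sum.inr k) = 0
      rw [sub_self]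
  have hLW : ∀ w ∈ W, L (π w) ∈ W := by
    intro w hw
    have h1 : Matrix.toLin' (Matrix.fromBlocks (siegM (t0 n F)) 0 0 1 :
        Matrix ((Fin n ⊕ Fin n) ⊕ Fin 2) ((Fin n ⊕ Fin n) ⊕ Fin 2) F) w ∈ W :=
      hinv (Submodule.mem_map_of_mem hw)
    rw [Matrix.toLin'_apply] at h1
    have h2 := W.sub_mem h1 hw
    rw [hN] at h2
    exact h2
  have hπL : ∀ x, π (L x) = 0 := by
    intro x
    funext j
    rfl
  have hρL : ∀ x, ρ (L x) = 0 := by
    intro x
    funext j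
    rfl
  set W' : Submodule F (Fin n → F) := W.map π with hW'
  set J : Submodule F ((Fin n ⊕ Fin n) ⊕ Fin 2 → F) := LinearMap.ker π with hJ
  set I : Submodule F ((Fin n ⊕ Fin n) ⊕ Fin 2 → F) := LinearMap.ker π ⊓ LinearMap.ker ρ with hI
  -- `Q = 0` on `I`
  have hIQ : ∀ u ∈ I, Cfsg.quadFormMinus n F a b u = 0 := by
    intro u hu
    have h1 : π u = 0 := LinearMap.mem_ker.mp hu.1
    have h2 : ρ u = 0 := LinearMap.mem_ker.mp hu.2
    have h3 : ∀ i, u (Sum.inl (Sum.inr i)) = 0 := fun i => congrFun h1 i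
    have h4 : ∀ k, u (Sum.inr k) = 0 := fun k => congrFun h2 k
    unfold Cfsg.quadFormMinus
    rw [h4 0, h4 1]
    have : ∑ i : Fin n, u (Sum.inl (Sum.inl i)) * u (Sum.inl (Sum.inr i)) = 0 :=
      Finset.sum_eq_zero (fun i _ => by rw [h3 i, mul_zero])
    rw [this]
    ring
  -- (b)
  have hb : finrank F W' ≤ finrank F ↥(W ⊓ I) := by
    have h1 : finrank F W' = finrank F (W'.map L) :=
      LinearEquiv.finrank_eq (Submodule.equivMapOfInjective L hLinj W')
    rw [h1]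
    apply Submodule.finrank_mono
    rintro _ ⟨x, ⟨w, hw, rfl⟩, rfl⟩
    exact ⟨hLW w hw, LinearMap.mem_ker.mpr (hπL _), LinearMap.mem_ker.mpr (hρL _)⟩
  -- (c)
  have hc : 2 * finrank F ↥(W ⊓ I) ≤ finrank F W :=
    Cfsg.Agent.Helper80.TSR2.r2_ts_bound (Cfsg.quadFormMinus n F a b)
      (Cfsg.Agent.Helper35.TS5973.ts_std_minus n a b hab).1 W (W ⊓ I) hnd inf_le_left
      (fun u hu => hIQ u hu.2)
  -- (d)
  have hd : finrank F W' + finrank F ↥(W ⊓ J) = finrank F W := by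
    have h1 := LinearMap.finrank_range_add_finrank_ker (π.domRestrict W)
    rw [LinearMap.range_domRestrict, LinearMap.ker_domRestrict] at h1
    have h2 : finrank F ↥(Submodule.comap W.subtype (LinearMap.ker π)) = finrank F ↥(W ⊓ J) := by
      rw [← Submodule.finrank_map_subtype_eq W (Submodule.comap W.subtype (LinearMap.ker π)),
        Submodule.map_comap_subtype]
    rw [h2] at h1
    exact h1
  -- (d')
  have hd' : finrank F ↥(W ⊓ J) ≤ finrank F ↥(W ⊓ I) + 2 := by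
    have h1 := LinearMap.finrank_range_add_finrank_ker (ρ.domRestrict (W ⊓ J))
    rw [LinearMap.range_domRestrict, LinearMap.ker_domRestrict] at h1
    have h2 : finrank F ↥(Submodule.comap (W ⊓ J).subtype (LinearMap.ker ρ))
        = finrank F ↥(W ⊓ I) := by
      rw [← Submodule.finrank_map_subtype_eq (W ⊓ J)
        (Submodule.comap (W ⊓ J).subtype (LinearMap.ker ρ)), Submodule.map_comap_subtype,
        hI, hJ, inf_assoc]
    rw [h2] at h1
    have h3 : finrank F ↥(Submodule.map ρ (W ⊓ J)) ≤ 2 := by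
      have := Submodule.finrank_le (Submodule.map ρ (W ⊓ J))
      rwa [Module.finrank_fin_fun] at this
    omega
  -- (e)
  have he : Even (finrank F W') := by
    let B : W' →ₗ[F] W' →ₗ[F] F := ((Matrix.toLinearMap₂' F A).flip).domRestrict₁₂ W' W'
    have hB : ∀ x y : W', B x y = (A *ᵥ (x : Fin n → F)) ⬝ᵥ (y : Fin n → F) := by
      intro x y
      show (Matrix.toLinearMap₂' F A) (y : Fin n → F) (x : Fin n → F) = _
      rw [Matrix.toLinearMap₂'_apply', dotProduct_comm]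
    refine Cfsg.Agent.Helper36.even_finrank_of_alt (F := F) (finrank F W') W' B ?_ ?_ rfl
    · intro x
      rw [hB, hA]
      exact s74t2b_alt n (t0 n F) _
    · intro x hx
      obtain ⟨w₁, hw₁, hw₁a⟩ := x.2
      have hzero : L (π w₁) = 0 := by
        by_contra hne'
        obtain ⟨y, hy, hy0⟩ := (hnd (L (π w₁)) (hLW w₁ hw₁) hne').2
        apply hy0
        show QuadraticMap.polar (Cfsg.quadFormMinus n F a b)
          (s90Elim n F (s74t2bL n F A (π w₁))) y = 0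
        rw [s90_polar_elim, s74t2b_polar_L]
        have := hx ⟨π y, Submodule.mem_map_of_mem hy⟩
        rw [hB] at this
        rw [hw₁a]
        exact this
      have hπ0 : π w₁ = 0 := hLinj (by rw [hzero, map_zero])
      apply Subtype.ext
      rw [← hw₁a, hπ0]
      rfl
  refine ⟨W ⊓ I, inf_le_left, fun u hu => hIQ u hu.2, ?_⟩
  obtain ⟨j, hj⟩ := he
  obtain ⟨s, hs⟩ := h4
  omega

/-- T2B [BIG, NEW] (`r = p = 2`, `⟹`): `d` odd, `m ≡ 0 (4)`: `x` = (Siegel element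
`[[1, T - Tᵀ], [0, 1]]` of rank `d - 1` on the hyperbolic part `Fin (d-1) ⊕ Fin (d-1)`) `⊕ 1` on the
anisotropic plane; `x ∈ Ω` (`Cfsg.Agent.Helper98.ELP.sieg_mem_omega` + the embedding
`O⁺_{2d-2} → O⁻_{2d}`).  `N = x - 1`: `range N = I` totally singular of dimension `d - 1`,
`ker N = I ⊕ E` (`E` the anisotropic plane).  For an invariant nondegenerate `W` of dimension `2 t`:
`k := rank (N|W) ∈ {t - 1, t}`, `k` is even (the form `(u, v) ↦ polar u (N v)` is alternating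
nondegenerate on `W / ker`), and `W ⊓ I` is totally singular of dimension `k`; so for `t` even
`k = t` and `W` is of plus type. -/
theorem s90_two_even_bad {p : ℕ} [Fact p.Prime] [CharP F p] (d m : ℕ) (hd : 4 ≤ d) (hm : 2 ≤ m)
    (hme : Even m) (hmn : m + 2 ≤ 2 * d) (a b : F)
    (hab : ∀ x y : F, x ^ 2 + a * x * y + b * y ^ 2 = 0 → x = 0 ∧ y = 0) (hp2 : p = 2)
    (hall : AllEll (Cfsg.quadFormMinus (d - 1) F a b) 2 m) :
    Even d ∨ m % 4 = 2 := by
  rcases Nat.even_or_odd d with hde | hdo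
  · exact Or.inl hde
  · right
    by_contra hm4
    have hm0 : m % 4 = 0 := by
      obtain ⟨k, hk⟩ := hme
      omega
    have hne : Even (d - 1) := by
      obtain ⟨k, hk⟩ := hdo
      exact ⟨k, by omega⟩
    have h0 : p • t0 (d - 1) F = 0 := by
      ext i j
      simp [Matrix.smul_apply]
    have hpow : (sieg (t0 (d - 1) F)) ^ 2 = 1 := by
      rw [← hp2, Cfsg.Agent.Helper74.ELP.sieg_pow, h0, sieg_zero]
    have hΩ₀ : sieg (t0 (d - 1) F) ∈ Cfsg.Geo.omegaGL (Cfsg.quadFormPlus (d - 1) F) := by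
      have h := sieg_mem_omega (n := Fin (d - 1)) (F := F) (by simp; omega) (t0 (d - 1) F)
      exact h
    have hΩ := s90_emb_omega (d - 1) a b _ hΩ₀
    have hx := hall (Units.map (s90Emb (d - 1) F) (sieg (t0 (d - 1) F))) hΩ
      ⟨1, by rw [← map_pow, hpow, map_one, one_smul]; rfl⟩
      (by
        intro z hz
        apply sieg_nonscalar (t0 (d - 1) F) (Cfsg.Agent.Helper74.ELP.t0_ne (d - 1) (by omega)) z
        ext i j
        have h1 := congrFun (congrFun hz (Sum.inl i)) (Sum.inl j)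
        have h2 : (Units.map (s90Emb (d - 1) F) (sieg (t0 (d - 1) F)) :
            Matrix ((Fin (d - 1) ⊕ Fin (d - 1)) ⊕ Fin 2) ((Fin (d - 1) ⊕ Fin (d - 1)) ⊕ Fin 2) F)
              (Sum.inl i) (Sum.inl j)
            = (sieg (t0 (d - 1) F) : Matrix (Fin (d - 1) ⊕ Fin (d - 1))
              (Fin (d - 1) ⊕ Fin (d - 1)) F) i j := rfl
        rw [h2] at h1
        rw [h1]
        simp [Matrix.smul_apply, Matrix.one_apply])
    obtain ⟨W, ⟨hdim, hnd, hnp⟩, hinv⟩ := hx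
    apply hnp
    exact s90t2b_plus (d - 1) hne a b hab W hnd hinv (by rw [hdim]; exact Nat.dvd_of_mod_eq_zero hm0)

end Cfsg.Agent.Helper85.S90
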